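import Cfsg.Agent.Sz8.Bound
import Cfsg.Agent.SchurSylow.Monomial

set_option autoImplicit false

/-!
The extension of the unipotent group of the Suzuki group over eight elements by the field, and the cover
that it induces.
-/

namespace CfsgLib.SzEight

open CfsgLib.Sz CfsgLib.Schur CfsgLib.SchurSylow

universe u

variable {F : Type u} [Field F] [Fintype F]

/-- The extension given by the cocycle `b ^ 4 * c + a ^ 2 * d`. -/
@[ext]
structure Ext (h : Hyp F 1) : Type u where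
  /-- first coordinate -/
  a : F
  /-- second coordinate -/
  b : F
  /-- fibre coordinate -/
  e : F

variable {h : Hyp F 1}

instance : Mul (Ext h) :=
  ⟨fun x y => ⟨x.a + y.a, x.b + y.b + x.a ^ 4 * y.a, x.e + y.e + x.b ^ 4 * y.a + x.a ^ 2 * y.b⟩⟩
instance : One (Ext h) := ⟨⟨0, 0, 0⟩⟩
instance : Inv (Ext h) :=
  ⟨fun x => ⟨x.a, x.b + x.a ^ 5, x.e + x.b ^ 4 * x.a + x.a ^ 2 * x.b + x.a ^ 21⟩⟩

theorem Ext.mul_def (x y : Ext h) : x * y =
    ⟨x.a + y.a, x.b + y.b + x.a ^ 4 * y.a, x.e + y.e + x.b ^ 4 * y.a + x.a ^ 2 * y.b⟩ := rfl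

theorem Ext.one_def : (1 : Ext h) = ⟨0, 0, 0⟩ := rfl

theorem Ext.inv_def (x : Ext h) :
    x⁻¹ = ⟨x.a, x.b + x.a ^ 5, x.e + x.b ^ 4 * x.a + x.a ^ 2 * x.b + x.a ^ 21⟩ := rfl

instance extGroup : Group (Ext h) :=
  Group.ofLeftAxioms
    (fun x y z => by
      have h8 := pow_eight h x.a
      refine Ext.ext ?_ ?_ ?_
      · simp only [Ext.mul_def]; ring
      · simp only [Ext.mul_def, add_four h]; ring
      · simp only [Ext.mul_def, add_four h, add_sq h, mul_pow]
        linear_combination (y.a ^ 4 * z.a * (x.a ^ 8 + x.a)) * h8)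
    (fun x => by ext <;> simp [Ext.mul_def, Ext.one_def])
    (fun x => by
      refine Ext.ext ?_ ?_ ?_
      · simp only [Ext.mul_def, Ext.one_def, Ext.inv_def]; linear_combination x.a * h.two
      · simp only [Ext.mul_def, Ext.one_def, Ext.inv_def]; linear_combination (x.b + x.a ^ 5) * h.two
      · simp only [Ext.mul_def, Ext.one_def, Ext.inv_def, add_four h, ← pow_mul]
        linear_combination (x.e + x.b ^ 4 * x.a + x.a ^ 2 * x.b + x.a ^ 21) * h.two)

instance : Finite (Ext h) :=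
  Finite.of_injective (fun x : Ext h => (x.a, x.b, x.e))
    fun _ _ e => Ext.ext (Prod.ext_iff.1 e).1 (Prod.ext_iff.1 (Prod.ext_iff.1 e).2).1
      (Prod.ext_iff.1 (Prod.ext_iff.1 e).2).2

variable (h)
include h

/-- The projection to the unipotent group. -/
def extProj : Ext h →* Usub h :=
  MonoidHom.mk' (fun x => ⟨gU h x.a x.b, x.a, x.b, rfl⟩) fun x y => Subtype.ext (by
    change gU h _ _ = gU h _ _ * gU h _ _
    rw [gU_mul, th_eq]; rfl)

/-- The standard section. -/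
noncomputable def extSec (x : Usub h) : Ext h :=
  ⟨x.2.choose, x.2.choose_spec.choose, 0⟩

theorem extProj_extSec (x : Usub h) : extProj h (extSec h x) = x :=
  Subtype.ext x.2.choose_spec.choose_spec.symm

theorem extSec_eq {x : Usub h} {a b : F} (e : (x : G F 1) = gU h a b) : extSec h x = ⟨a, b, 0⟩ := by
  obtain ⟨h1, h2⟩ := gU_injective h (e.symm.trans x.2.choose_spec.choose_spec)
  subst h1 h2; rfl

/-- The fibre. -/
def extIncl : Multiplicative F →* Ext h :=
  MonoidHom.mk' (fun c => ⟨0, 0, c.toAdd⟩) fun c d => by ext <;> simp [Ext.mul_def]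

theorem conj_coords (a b a₀ b₀ : F) (t : Fˣ) : ∃ b',
    (gU h a₀ b₀ * gD h t)⁻¹ * gU h a b * (gU h a₀ b₀ * gD h t) =
      gU h (th 1 ((t⁻¹ : Fˣ) : F) * a) b' ∧
      (a = 0 → b' = th 1 ((t⁻¹ : Fˣ) : F) * ((t⁻¹ : Fˣ) : F) ^ 2 * b) := by
  refine ⟨th 1 ((t⁻¹ : Fˣ) : F) * ((t⁻¹ : Fˣ) : F) ^ 2 * (b + (th 1 a * a₀ + th 1 a₀ * a)), ?_,
    fun e => by subst e; simp [th_zero]⟩
  have h1 : (gU h a₀ b₀)⁻¹ * gU h a b * gU h a₀ b₀ = gU h a (b + (th 1 a * a₀ + th 1 a₀ * a)) := by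
    rw [mul_assoc, inv_mul_eq_iff_eq_mul, gU_mul, gU_mul]
    congr 1
    · exact add_comm _ _
    · linear_combination -(th 1 a₀ * a) * h.two
  calc (gU h a₀ b₀ * gD h t)⁻¹ * gU h a b * (gU h a₀ b₀ * gD h t)
      = (gD h t)⁻¹ * ((gU h a₀ b₀)⁻¹ * gU h a b * gU h a₀ b₀) * ((gD h t)⁻¹)⁻¹ := by group
    _ = _ := by rw [h1, gD_inv, gD_gU]

theorem fixed_of_not_free {i : G F 1 ⧸ Usub h} (hi : ¬ IsFree (Usub h) i) :
    cosRep (Usub h) i ∈ borel h ∧ ∀ g : Usub h, (g : G F 1) • i = i := by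
  simp only [IsFree, not_forall] at hi
  obtain ⟨u, hu, hu1⟩ := hi
  set r := cosRep (Usub h) i with hr
  have hcocy : r⁻¹ * ((u : G F 1) * r) ∈ Usub h := by
    have := (cocy (Usub h) (u : G F 1) i).2
    change (cosRep (Usub h) ((u : G F 1) • i))⁻¹ * ((u : G F 1) * r) ∈ Usub h at this
    rwa [hu] at this
  obtain ⟨a', b', e⟩ := hcocy
  obtain ⟨a, b, eu⟩ := u.2
  have hne : ¬(a = 0 ∧ b = 0) := fun h0 => hu1 (Subtype.ext (by rw [eu, (gU_eq_one_iff h).2 h0]; rfl))
  have hb : r ∈ borel h := inv_mem_iff.1 (fix_of_conj h hne (x := r⁻¹) (a' := a') (b' := b')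
    (by rw [← eu, inv_inv, ← e, mul_assoc]))
  refine ⟨hb, fun g => ?_⟩
  rw [← cosRep_mk (Usub h) i, MulAction.Quotient.smul_coe, smul_eq_mul, QuotientGroup.eq]
  have h1 := borel_normalizes h (inv_mem hb) (inv_mem g.2)
  rw [inv_inv] at h1
  convert h1 using 1
  rw [hr]; group

theorem odd_fixed [Fintype (G F 1 ⧸ Usub h)] [DecidablePred fun i : G F 1 ⧸ Usub h => IsFree (Usub h) i] :
    Odd (Finset.univ.filter fun i : G F 1 ⧸ Usub h => ¬ IsFree (Usub h) i).card := by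
  haveI := Fact.mk Nat.prime_two
  have h3 := (isPGroup_Usub h).card_modEq_card_fixedPoints (G F 1 ⧸ Usub h)
  have hset : MulAction.fixedPoints (Usub h) (G F 1 ⧸ Usub h) =
      ↑(Finset.univ.filter fun i : G F 1 ⧸ Usub h => ¬ IsFree (Usub h) i) := by
    ext i
    simp only [MulAction.mem_fixedPoints, Finset.coe_filter, Finset.mem_univ, true_and, Set.mem_setOf_eq]
    refine ⟨fun hfix hfree => ?_, fun hi => (fixed_of_not_free h hi).2⟩
    have h0 := hfix ⟨gU h 1 0, 1, 0, rfl⟩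
    have h1 := hfree ⟨gU h 1 0, 1, 0, rfl⟩ h0
    exact one_ne_zero ((gU_eq_one_iff h).1 (congrArg Subtype.val h1)).1
  rw [Nat.card_congr (Equiv.setCongr hset), Nat.card_eq_fintype_card (α := (_ : Set _)),
    ← Set.toFinset_card, Finset.toFinset_coe] at h3
  have h4 : ¬ 2 ∣ Nat.card (G F 1 ⧸ Usub h) := by
    rw [← Subgroup.index_eq_card, Usub_index h]; exact odd_part h
  rw [← Nat.not_even_iff_odd, even_iff_two_dvd]
  exact fun h5 => h4 (Nat.modEq_zero_iff_dvd.1 (h3.trans (Nat.modEq_zero_iff_dvd.2 h5)))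

theorem exists_cover : ∃ (Γ : Type u) (_ : Group Γ) (_ : Finite Γ) (σ : Γ →* G F 1),
    Cfsg.IsStemExtension σ ∧ 4 ≤ Nat.card σ.ker := by
  classical
  haveI := h.charP
  haveI := Fintype.ofFinite (G F 1 ⧸ Usub h)
  have hC : ∀ x : Ext h, extProj h x = 1 → ∃ c, extIncl h c = x := fun x hx => by
    obtain ⟨h1, h2⟩ := (gU_eq_one_iff h).1 (congrArg Subtype.val hx)
    exact ⟨Multiplicative.ofAdd x.e, Ext.ext h1.symm h2.symm rfl⟩
  have hκ : ∀ c, extProj h (extIncl h c) = 1 := fun c => Subtype.ext (gU_zero h)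
  have hcen : ∀ c y, y * extIncl h c = extIncl h c * y := fun c y => by
    ext <;> simp [extIncl, Ext.mul_def, add_comm]
  have hκi : Function.Injective (extIncl h) := fun c d e =>
    Multiplicative.toAdd.injective (congrArg Ext.e e)
  obtain ⟨Γ₀, _, _, φ, inc, hφs, hφc, hinj, hcom⟩ := exists_induced (extProj h)
    (fun x => ⟨_, extProj_extSec h x⟩) (extIncl h) hκ hcen hκi hC
  have hval : ∀ d : F, inc (Multiplicative.ofAdd (d ^ 4 + d)) ∈ φ.ker ⊓ commutator Γ₀ := by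
    intro d
    let x : Usub h := ⟨gU h 1 0, 1, 0, rfl⟩
    let y : Usub h := ⟨gU h 0 d, 0, d, rfl⟩
    have hxy : x * y = y * x := Subtype.ext (by
      change gU h 1 0 * gU h 0 d = gU h 0 d * gU h 1 0
      rw [gU_mul, gU_mul]; congr 1 <;> simp [th_zero])
    obtain ⟨A, B, T, hAB, hfree, hfix⟩ := exists_pair (extProj h) (extSec h) (extProj_extSec h)
      (extIncl h) hκ hκi hC x y hxy
    have hT : ∀ i, ¬ IsFree (Usub h) i → T i = Multiplicative.ofAdd (d ^ 4 + d) := by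
      intro i hi
      obtain ⟨hb, hall⟩ := fixed_of_not_free h hi
      obtain ⟨a₀, b₀, t, ht⟩ := (mem_borel_iff h).1 hb
      have hcoc : ∀ g : Usub h, (cocy (Usub h) (g : G F 1) i : G F 1) =
          (gU h a₀ b₀ * gD h t)⁻¹ * g * (gU h a₀ b₀ * gD h t) := fun g => by
        change (cosRep (Usub h) ((g : G F 1) • i))⁻¹ * ((g : G F 1) * cosRep (Usub h) i) = _
        rw [hall g, ht, mul_assoc]
      obtain ⟨b₁, e₁, -⟩ := conj_coords h 1 0 a₀ b₀ t
      obtain ⟨b₂, e₂, hb₂⟩ := conj_coords h 0 d a₀ b₀ t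
      have h1 := hfix i hi (hall x) (hall y)
      rw [extSec_eq h ((hcoc x).trans e₁), extSec_eq h ((hcoc y).trans e₂), hb₂ rfl] at h1
      have h2 := congrArg Ext.e h1
      simp only [Ext.mul_def, th_eq, extIncl, MonoidHom.mk'_apply, mul_zero, mul_one] at h2
      refine Multiplicative.toAdd.injective ?_
      rw [toAdd_ofAdd]
      have hu := pow_seven h (t⁻¹ : Fˣ).ne_zero
      generalize ((t⁻¹ : Fˣ) : F) = u at h2 hu
      linear_combination -h2 + (d - d ^ 4 * (u ^ 21 + u ^ 14 + u ^ 7 + 1) + d * u ^ 7) * hu - d ^ 4 * h.two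
    have hprod : ∏ i, T i = Multiplicative.ofAdd (d ^ 4 + d) := by
      rw [← Finset.prod_filter_mul_prod_filter_not Finset.univ (fun i => IsFree (Usub h) i),
        Finset.prod_eq_one (fun i hi => hfree i (Finset.mem_filter.1 hi).2), one_mul,
        Finset.prod_congr rfl (fun i hi => hT i (Finset.mem_filter.1 hi).2), Finset.prod_const]
      obtain ⟨j, hj⟩ := odd_fixed h
      have h2 : Multiplicative.ofAdd (d ^ 4 + d) ^ 2 = 1 := by
        rw [← ofAdd_nsmul, ofAdd_eq_one, two_nsmul]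
        linear_combination (d ^ 4 + d) * h.two
      rw [hj, pow_succ, pow_mul, h2, one_pow, one_mul]
    exact hprod ▸ hcom A B T hAB
  obtain ⟨Γ, iG, iF, σ, hσ, ⟨e⟩⟩ := exists_stem φ hφs hφc
  refine ⟨Γ, iG, iF, σ, hσ, ?_⟩
  rw [Nat.card_congr e.toEquiv]
  obtain ⟨w, hw⟩ := exists_gen h
  let j : ZMod 2 × ZMod 2 → ↥(φ.ker ⊓ commutator Γ₀) := fun v => ⟨_, hval (coord w (0, v))⟩
  have hj : Function.Injective j := by
    intro v v' e'
    have h1 := Multiplicative.ofAdd.injective (hinj (congrArg Subtype.val e'))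
    set d := coord w (0, v) + coord w (0, v')
    have hd : d ^ 4 = d := by
      rw [add_four h]; linear_combination h1 + (coord w (0, v') ^ 4 - coord w (0, v)) * h.two
    have hd01 : d = 0 ∨ d = 1 := by
      by_cases hd0 : d = 0
      · exact Or.inl hd0
      · have h3 : d ^ 3 = 1 := mul_left_cancel₀ hd0 (by rw [← pow_succ', hd, mul_one])
        exact Or.inr (by linear_combination pow_seven h hd0 - d * (d ^ 3 + 1) * h3)
    rcases hd01 with hd0 | hd0 <;> rw [show d = coord w ((0, v) + (0, v')) from (coord_add w _ _).symm] at hd0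
    · have h2 := congrArg Prod.snd (coord_eq_zero h hw hd0)
      simp only [Prod.snd_add, Prod.snd_zero] at h2
      have : ∀ a b : ZMod 2 × ZMod 2, a + b = 0 → a = b := by decide
      exact this _ _ h2
    · rw [show (1 : F) = coord w (1, 0) by simp [coord]] at hd0
      have h2 := congrArg Prod.fst ((coord_bijective h hw).1 hd0)
      simp at h2
  have := Nat.card_le_card_of_injective j hj
  simpa using this

theorem multiplier : Cfsg.HasSchurMultiplier (G F 1) (Multiplicative (ZMod 2 × ZMod 2)) := by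
  refine ⟨?_, fun Γ _ _ σ hσ => stem_bound h σ hσ⟩
  obtain ⟨Γ, iG, iF, σ, hσ, hcard⟩ := exists_cover h
  obtain ⟨π, hπ⟩ := stem_bound h σ hσ
  refine ⟨Γ, iG, iF, σ, hσ, ⟨(MulEquiv.ofBijective π ?_).symm⟩⟩
  exact hπ.bijective_of_nat_card_le (le_trans (by simp) hcard)

end CfsgLib.SzEight
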