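import Cfsg.Agent.Sz8.Field
import Cfsg.Agent.Sz.Schur

set_option autoImplicit false

/-!
The kernel of a stem extension of the Suzuki group over eight elements has exponent two and order at
most four.
-/

namespace CfsgLib.SzEight

open CfsgLib.Sz
open scoped commutatorElement

section

variable {F : Type*} [Field F] [Fintype F] {Γ : Type*} [Group Γ]

omit [Field F] [Fintype F] in
theorem comm_mul_left (x x' y : Γ) : ⁅x * x', y⁆ = x * ⁅x', y⁆ * x⁻¹ * ⁅x, y⁆ := by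
  simp only [commutatorElement_def]; group

omit [Field F] [Fintype F] in
theorem comm_mul_right (x y y' : Γ) : ⁅x, y * y'⁆ = ⁅x, y⁆ * (y * ⁅x, y'⁆ * y⁻¹) := by
  simp only [commutatorElement_def]; group

omit [Field F] [Fintype F] in
theorem hall_witt (x y z : Γ) :
    x * z * ⁅y, ⁅z⁻¹, x⁻¹⁆⁆⁻¹ * z⁻¹ * y * ⁅x⁻¹, ⁅y⁻¹, z⁆⁆⁻¹ * y⁻¹ * x⁻¹ = ⁅z, ⁅x, y⁆⁆ := by
  simp only [commutatorElement_def]; group

/-- A central extension together with a section. -/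
structure Data (h : Hyp F 1) (σ : Γ →* G F 1) (L : G F 1 → Γ) : Prop where
  sect : ∀ g, σ (L g) = g
  central : σ.ker ≤ Subgroup.center Γ

variable {h : Hyp F 1} {σ : Γ →* G F 1} {L : G F 1 → Γ} (c : Data h σ L)
include c

theorem Data.comm_eq {x x' y y' : Γ} (hx : σ x = σ x') (hy : σ y = σ y') : ⁅x, y⁆ = ⁅x', y'⁆ := by
  have hk : ∀ u u' : Γ, σ u = σ u' → ∀ g, g * (u'⁻¹ * u) = (u'⁻¹ * u) * g := fun u u' e g =>
    Subgroup.mem_center_iff.1 (c.central (by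
      rw [MonoidHom.mem_ker, map_mul, map_inv, e, inv_mul_cancel])) g
  have h1 : ∀ u k v : Γ, (∀ g, g * k = k * g) → ⁅u * k, v⁆ = ⁅u, v⁆ := fun u k v hkc => by
    rw [commutatorElement_def, commutatorElement_def, mul_assoc u k v, ← hkc v]; group
  have h2 : ∀ u k v : Γ, (∀ g, g * k = k * g) → ⁅u, v * k⁆ = ⁅u, v⁆ := fun u k v hkc => by
    rw [← commutatorElement_inv (v * k) u, h1 v k u hkc, commutatorElement_inv]
  rw [show x = x' * (x'⁻¹ * x) by group, show y = y' * (y'⁻¹ * y) by group, h1 _ _ _ (hk x x' hx),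
    h2 _ _ _ (hk y y' hy)]

/-- The pairing with the centre at the element one. -/
def lone (h : Hyp F 1) (L : G F 1 → Γ) (d : F) : Γ := ⁅L (gU h 1 0), L (gU h 0 d)⁆

theorem Data.comm_mem {x y : Γ} {a b d : F} (hx : σ x = gU h a b) (hy : σ y = gU h 0 d) :
    ⁅x, y⁆ ∈ σ.ker := by
  rw [MonoidHom.mem_ker, map_commutatorElement, hx, hy]
  refine commutatorElement_eq_one_iff_mul_comm.2 ?_
  rw [gU_mul, gU_mul]
  congr 1 <;> simp [th_zero] <;> ring

theorem Data.comm_cen {x y : Γ} {a b d : F} (hx : σ x = gU h a b) (hy : σ y = gU h 0 d) (g : Γ) :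
    g * ⁅x, y⁆ * g⁻¹ = ⁅x, y⁆ := by
  rw [Subgroup.mem_center_iff.1 (c.central (c.comm_mem hx hy)) g, mul_inv_cancel_right]

theorem Data.add_left {x x' y : Γ} {a b d : F} (hx : σ x' = gU h a b) (hy : σ y = gU h 0 d) :
    ⁅x * x', y⁆ = ⁅x', y⁆ * ⁅x, y⁆ := by
  rw [comm_mul_left, c.comm_cen hx hy]

theorem Data.add_right {x y y' : Γ} {a b d : F} (hx : σ x = gU h a b) (hy : σ y' = gU h 0 d) :
    ⁅x, y * y'⁆ = ⁅x, y⁆ * ⁅x, y'⁆ := by
  rw [comm_mul_right, c.comm_cen hx hy]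

theorem Data.sq_one {x y : Γ} {a b d : F} (hx : σ x = gU h a b) (hy : σ y = gU h 0 d) :
    ⁅x, y⁆ * ⁅x, y⁆ = 1 := by
  rw [← c.add_right hx hy, c.comm_eq (x' := x) (y' := 1) rfl
    (by rw [map_mul, hy, gU_sq, th_zero, zero_mul, gU_zero, map_one]), commutatorElement_one_right]

theorem Data.zz {x y : Γ} {b d : F} (hx : σ x = gU h 0 b) (hy : σ y = gU h 0 d) : ⁅x, y⁆ = 1 := by
  by_cases hb : b = 0
  · rw [c.comm_eq (x' := 1) (y' := y) (by rw [hx, hb, gU_zero, map_one]) rfl, commutatorElement_one_left]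
  have hb7 := pow_seven h hb
  set u := L (gU h (b ^ 3) 0)
  have hu : σ u = gU h (b ^ 3) 0 := c.sect _
  have hval : th 1 (b ^ 3) * b ^ 3 = b := by
    rw [th_eq]; linear_combination (b ^ 8 + b) * hb7
  rw [c.comm_eq (x' := u * u) (y' := y) (by rw [hx, map_mul, hu, gU_sq, hval]) rfl, c.add_left hu hy,
    c.sq_one hu hy]

theorem Data.lone_zero : lone h L 0 = 1 := by
  rw [lone, c.comm_eq (x' := L (gU h 1 0)) (y' := 1) rfl (by rw [c.sect, gU_zero, map_one]),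
    commutatorElement_one_right]

theorem Data.formula {x y : Γ} {a b d : F} (hx : σ x = gU h a b) (hy : σ y = gU h 0 d) :
    ⁅x, y⁆ = lone h L (a ^ 2 * d) := by
  by_cases ha : a = 0
  · subst ha
    rw [c.zz hx hy, zero_pow two_ne_zero, zero_mul, c.lone_zero]
  obtain ⟨s, hs⟩ := h.th_surjective a
  have hs0 : s ≠ 0 := fun e => ha (by rw [← hs, e, th_zero])
  have hs7 := pow_seven h hs0
  set D := L (gD h (Units.mk0 s hs0))
  set u := L (gU h 1 0)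
  set v := L (gU h 0 (a ^ 2 * d))
  have h1 : σ (D * u * D⁻¹) = gU h a 0 := by
    rw [map_mul, map_mul, map_inv, c.sect, c.sect, gD_gU, Units.val_mk0, hs, mul_one, mul_zero]
  have h2 : σ (D * v * D⁻¹) = gU h 0 d := by
    rw [map_mul, map_mul, map_inv, c.sect, c.sect, gD_gU, Units.val_mk0, mul_zero]
    congr 1
    rw [← hs, th_eq]
    linear_combination d * (s ^ 7 + 1) * hs7
  have hmem : σ ⁅u, v⁆ = 1 := c.comm_mem (c.sect _) (c.sect _)
  calc ⁅x, y⁆ = ⁅(D * u * D⁻¹) * L (gU h 0 b), D * v * D⁻¹⁆ := c.comm_eq (by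
        rw [hx, map_mul, h1, c.sect, gU_mul, mul_zero, zero_add, add_zero, add_zero]) (hy.trans h2.symm)
    _ = ⁅L (gU h 0 b), D * v * D⁻¹⁆ * ⁅D * u * D⁻¹, D * v * D⁻¹⁆ := c.add_left (c.sect _) h2
    _ = D * ⁅u, v⁆ * D⁻¹ := by
        rw [c.zz (c.sect _) h2, one_mul]
        simp only [commutatorElement_def]; group
    _ = ⁅u, v⁆ := by
        rw [Subgroup.mem_center_iff.1 (c.central (MonoidHom.mem_ker.2 hmem)) D, mul_inv_cancel_right]

theorem Data.lone_add (d d' : F) : lone h L (d + d') = lone h L d * lone h L d' := by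
  rw [lone, c.comm_eq (x' := L (gU h 1 0)) (y' := L (gU h 0 d) * L (gU h 0 d')) rfl (by
    rw [map_mul, c.sect, c.sect, c.sect, gU_mul, th_zero, zero_mul, add_zero, add_zero])]
  exact c.add_right (c.sect _) (c.sect _)

theorem Data.lone_mem (d : F) : lone h L d ∈ σ.ker := c.comm_mem (c.sect _) (c.sect _)

theorem Data.lone_sq (d : F) : lone h L d * lone h L d = 1 := c.sq_one (c.sect _) (c.sect _)

theorem Data.lone_inv (d : F) : (lone h L d)⁻¹ = lone h L d := inv_eq_of_mul_eq_one_right (c.lone_sq d)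

omit c in
theorem gU_comm (a b a' b' : F) :
    ⁅gU h a b, gU h a' b'⁆ = gU h 0 (a ^ 4 * a' + a' ^ 4 * a) := by
  rw [commutatorElement_def, mul_inv_eq_iff_eq_mul, mul_inv_eq_iff_eq_mul, gU_mul, gU_mul, gU_mul]
  simp only [th_zero, th_eq]
  congr 1
  · linear_combination (0 : F) * h.two
  · linear_combination -(a' ^ 4 * a) * h.two

theorem Data.comm_lift {x y : Γ} {a b a' b' : F} (hx : σ x = gU h a b) (hy : σ y = gU h a' b') :
    σ ⁅x, y⁆ = gU h 0 (a ^ 4 * a' + a' ^ 4 * a) := by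
  rw [map_commutatorElement, hx, hy, gU_comm]

theorem Data.comm_swap {x y : Γ} {b : F} {a d : F} (hx : σ x = gU h a b) (hy : σ y = gU h 0 d) :
    ⁅y, x⁆ = lone h L (a ^ 2 * d) := by
  rw [← commutatorElement_inv, c.formula hx hy, c.lone_inv]

theorem Data.lone_one {w : F} (hw : w ^ 3 = w + 1) : lone h L 1 = 1 := by
  set x := L (gU h 1 0)
  set y := L (gU h w 0)
  set z := L (gU h (w ^ 2) 0)
  have hx : σ x = gU h 1 0 := c.sect _
  have hy : σ y = gU h w 0 := c.sect _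
  have hz : σ z = gU h (w ^ 2) 0 := c.sect _
  have hx' : σ x⁻¹ = gU h 1 (0 + th 1 1 * 1) := by rw [map_inv, hx, gU_inv]
  have hy' : σ y⁻¹ = gU h w (0 + th 1 w * w) := by rw [map_inv, hy, gU_inv]
  have hz' : σ z⁻¹ = gU h (w ^ 2) (0 + th 1 (w ^ 2) * w ^ 2) := by rw [map_inv, hz, gU_inv]
  have e := hall_witt x y z
  rw [c.formula hz (c.comm_lift hx hy),
    c.formula hy (c.comm_lift hz' hx'), c.formula hx' (c.comm_lift hy' hz), c.lone_inv, c.lone_inv] at e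
  have hcen : ∀ d g, g * lone h L d = lone h L d * g := fun d g =>
    Subgroup.mem_center_iff.1 (c.central (c.lone_mem d)) g
  have e2 : lone h L (w ^ 2 * ((w ^ 2) ^ 4 * 1 + 1 ^ 4 * w ^ 2)) *
      lone h L (1 ^ 2 * (w ^ 4 * w ^ 2 + (w ^ 2) ^ 4 * w)) =
      lone h L ((w ^ 2) ^ 2 * (1 ^ 4 * w + w ^ 4 * 1)) := by
    have hAB : ∀ A B : Γ, (∀ g, g * A = A * g) → (∀ g, g * B = B * g) →
        x * z * A * z⁻¹ * y * B * y⁻¹ * x⁻¹ = A * B := fun A B hA hB => by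
      calc x * z * A * z⁻¹ * y * B * y⁻¹ * x⁻¹ = A * (x * z) * z⁻¹ * (y * B) * y⁻¹ * x⁻¹ := by
            rw [← hA (x * z)]; group
        _ = A * (x * B) * x⁻¹ := by rw [hB y]; group
        _ = A * B := by rw [hB x]; group
    rw [← e, hAB _ _ (hcen _) (hcen _)]
  have h7 : w ^ 7 = 1 := pow_seven h (fun e => by rw [e] at hw; simp at hw)
  rw [← c.lone_add] at e2
  have e3 := c.lone_add (w ^ 2 * ((w ^ 2) ^ 4 * 1 + 1 ^ 4 * w ^ 2) +
      1 ^ 2 * (w ^ 4 * w ^ 2 + (w ^ 2) ^ 4 * w)) ((w ^ 2) ^ 2 * (1 ^ 4 * w + w ^ 4 * 1))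
  rw [e2, c.lone_sq] at e3
  rw [← e3]
  congr 1
  grobner

/-- The image of the pairing. -/
def Data.imL : Subgroup Γ where
  carrier := {k | ∃ d, k = lone h L d}
  one_mem' := ⟨0, c.lone_zero.symm⟩
  mul_mem' := by rintro _ _ ⟨d, rfl⟩ ⟨d', rfl⟩; exact ⟨d + d', (c.lone_add d d').symm⟩
  inv_mem' := by rintro _ ⟨d, rfl⟩; exact ⟨d, c.lone_inv d⟩

theorem Data.comm_imL {x y : Γ} {a b d : F} (hx : σ x = gU h a b) (hy : σ y = gU h 0 d) :
    ⁅x, y⁆ ∈ c.imL := ⟨_, c.formula hx hy⟩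

/-- The subgroup spanned by the image of the pairing and three commutators. -/
def Data.span (E₁ E₂ E₃ : Γ) (h12 : Commute E₁ E₂) (h13 : Commute E₁ E₃) (h23 : Commute E₂ E₃) :
    Subgroup Γ where
  carrier := {g | ∃ i j k : ℤ, ∃ u ∈ c.imL, g = u * (E₁ ^ i * E₂ ^ j * E₃ ^ k)}
  one_mem' := ⟨0, 0, 0, 1, one_mem _, by simp⟩
  mul_mem' := by
    rintro _ _ ⟨i, j, k, u, hu, rfl⟩ ⟨i', j', k', v, hv, rfl⟩
    refine ⟨i + i', j + j', k + k', u * v, mul_mem hu hv, ?_⟩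
    obtain ⟨d, rfl⟩ := hv
    rw [zpow_add, zpow_add, zpow_add, mul_assoc u, ← mul_assoc (E₁ ^ i * E₂ ^ j * E₃ ^ k) (lone h L d),
      Subgroup.mem_center_iff.1 (c.central (c.lone_mem d)), mul_assoc u (lone h L d)]
    simp only [mul_assoc]
    rw [← mul_assoc (E₃ ^ k) (E₁ ^ i'), ← (h13.zpow_zpow i' k).eq, mul_assoc (E₁ ^ i'),
      ← mul_assoc (E₂ ^ j) (E₁ ^ i'), ← (h12.zpow_zpow i' j).eq, mul_assoc (E₁ ^ i'),
      ← mul_assoc (E₃ ^ k) (E₂ ^ j'), ← (h23.zpow_zpow j' k).eq, mul_assoc (E₂ ^ j')]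
  inv_mem' := by
    rintro _ ⟨i, j, k, u, hu, rfl⟩
    refine ⟨-i, -j, -k, u⁻¹, inv_mem hu, ?_⟩
    obtain ⟨d, rfl⟩ := hu
    rw [mul_inv_rev, c.lone_inv, Subgroup.mem_center_iff.1 (c.central (c.lone_mem d))]
    congr 1
    rw [mul_inv_rev, mul_inv_rev, ← zpow_neg, ← zpow_neg, ← zpow_neg,
      ((h12.symm).zpow_zpow (-j) (-i)).eq, ← mul_assoc, (h13.symm.zpow_zpow (-k) (-i)).eq, mul_assoc,
      (h23.symm.zpow_zpow (-k) (-j)).eq, ← mul_assoc]

theorem Data.comm_sq_mem {x y : Γ} {a b a' b' : F} (hx : σ x = gU h a b) (hy : σ y = gU h a' b') :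
    ⁅x, y⁆ * ⁅x, y⁆ ∈ c.imL := by
  have hxx : σ (x * x) = gU h 0 (th 1 a * a) := by rw [map_mul, hx, gU_sq]
  have h1 := comm_mul_left x x y
  have h2 : x * ⁅x, y⁆ * x⁻¹ = ⁅x, ⁅x, y⁆⁆ * ⁅x, y⁆ := by simp only [commutatorElement_def]; group
  rw [h2, mul_assoc] at h1
  rw [show ⁅x, y⁆ * ⁅x, y⁆ = ⁅x, ⁅x, y⁆⁆⁻¹ * ⁅x * x, y⁆ by rw [h1, inv_mul_cancel_left]]
  refine mul_mem (inv_mem (c.comm_imL hx (c.comm_lift hx hy))) ?_
  rw [← commutatorElement_inv]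
  exact inv_mem (c.comm_imL hy hxx)

theorem Data.ker_le {w : F} (hw : w ^ 3 = w + 1) :
    σ.ker ⊓ ⁅(Usub h).comap σ, (Usub h).comap σ⁆ ≤ c.imL := by
  classical
  haveI := h.charP
  set A₁ := L (gU h 1 0)
  set A₂ := L (gU h w 0)
  set A₃ := L (gU h (w ^ 2) 0)
  set E₁ := ⁅A₁, A₂⁆
  set E₂ := ⁅A₁, A₃⁆
  set E₃ := ⁅A₂, A₃⁆
  have hE₁ : σ E₁ = _ := c.comm_lift (h := h) (c.sect _) (c.sect _)
  have hE₂ : σ E₂ = _ := c.comm_lift (h := h) (c.sect _) (c.sect _)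
  have hE₃ : σ E₃ = _ := c.comm_lift (h := h) (c.sect _) (c.sect _)
  have hc : ∀ {u v : Γ} {b d : F}, σ u = gU h 0 b → σ v = gU h 0 d → Commute u v := fun hu hv =>
    commutatorElement_eq_one_iff_mul_comm.1 (c.zz hu hv)
  let T := c.span E₁ E₂ E₃ (hc hE₁ hE₂) (hc hE₁ hE₃) (hc hE₂ hE₃)
  have hMT : c.imL ≤ T := fun u hu => ⟨0, 0, 0, u, hu, by simp⟩
  have hTE₁ : E₁ ∈ T := ⟨1, 0, 0, 1, one_mem _, by simp⟩
  have hTE₂ : E₂ ∈ T := ⟨0, 1, 0, 1, one_mem _, by simp⟩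
  have hTE₃ : E₃ ∈ T := ⟨0, 0, 1, 1, one_mem _, by simp⟩
  have hTZ : ∀ t ∈ T, ∃ z, σ t = gU h 0 z := by
    have hZ : ∀ u, u ∈ Subgroup.closure ({E₁, E₂, E₃} : Set Γ) → ∃ z, σ u = gU h 0 z := by
      intro u hu
      induction hu using Subgroup.closure_induction with
      | mem u hu =>
        rcases hu with rfl | rfl | rfl
        exacts [⟨_, hE₁⟩, ⟨_, hE₂⟩, ⟨_, hE₃⟩]
      | one => exact ⟨0, by rw [map_one, gU_zero]⟩
      | mul u v _ _ hu hv =>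
        obtain ⟨z, hz⟩ := hu; obtain ⟨z', hz'⟩ := hv
        exact ⟨z + z', by rw [map_mul, hz, hz', gU_mul, th_zero, zero_mul, add_zero, add_zero]⟩
      | inv u _ hu =>
        obtain ⟨z, hz⟩ := hu
        exact ⟨_, by rw [map_inv, hz, gU_inv]⟩
    rintro _ ⟨i, j, k, u, ⟨d, rfl⟩, rfl⟩
    obtain ⟨z, hz⟩ := hZ (E₁ ^ i * E₂ ^ j * E₃ ^ k) (mul_mem (mul_mem
      (zpow_mem (Subgroup.subset_closure (by simp)) _) (zpow_mem (Subgroup.subset_closure (by simp)) _))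
      (zpow_mem (Subgroup.subset_closure (by simp)) _))
    exact ⟨z, by rw [map_mul, MonoidHom.mem_ker.1 (c.lone_mem d), one_mul, hz]⟩
  have hconj : ∀ t ∈ T, ∀ u a b, σ u = gU h a b → u * t * u⁻¹ ∈ T := by
    intro t ht u a b hu
    obtain ⟨z, hz⟩ := hTZ t ht
    rw [show u * t * u⁻¹ = ⁅u, t⁆ * t by simp only [commutatorElement_def]; group]
    exact mul_mem (hMT (c.comm_imL hu hz)) ht
  let Q : F → F → Prop := fun a a' => ∀ x y b b', σ x = gU h a b → σ y = gU h a' b' → ⁅x, y⁆ ∈ T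
  have hsym : ∀ a a', Q a a' → Q a' a := fun a a' hQ x y b b' hx hy => by
    rw [← commutatorElement_inv]; exact inv_mem (hQ y x b' b hy hx)
  have h0 : ∀ a', Q 0 a' := fun a' x y b b' hx hy => by
    rw [← commutatorElement_inv]; exact inv_mem (hMT (c.comm_imL hy hx))
  have hadd : ∀ a₁ a₂ a', Q a₁ a' → Q a₂ a' → Q (a₁ + a₂) a' := by
    intro a₁ a₂ a' h1 h2 x y b b' hx hy
    have hL : σ ((L (gU h a₁ 0))⁻¹ * x) = gU h a₂ (th 1 a₁ * a₁ + b + th 1 a₁ * (a₁ + a₂)) := by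
      rw [map_mul, map_inv, c.sect, hx, gU_inv, gU_mul]
      congr 1
      · linear_combination a₁ * h.two
      · ring
    rw [show x = L (gU h a₁ 0) * ((L (gU h a₁ 0))⁻¹ * x) by group, comm_mul_left]
    exact mul_mem (hconj _ (h2 _ _ _ _ hL hy) _ _ _ (c.sect _)) (h1 _ _ _ _ (c.sect _) hy)
  have hrep : ∀ a a', (⁅L (gU h a 0), L (gU h a' 0)⁆ ∈ T) → Q a a' := by
    intro a a' hT x y b b' hx hy
    rw [c.comm_eq (x' := L (gU h a 0) * L (gU h 0 b)) (y' := L (gU h a' 0) * L (gU h 0 b'))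
      (by rw [hx, map_mul, c.sect, c.sect, gU_mul, mul_zero, zero_add, add_zero, add_zero])
      (by rw [hy, map_mul, c.sect, c.sect, gU_mul, mul_zero, zero_add, add_zero, add_zero]),
      comm_mul_left]
    have hy2 : σ (L (gU h a' 0) * L (gU h 0 b')) = gU h (a' + 0) (0 + b' + th 1 a' * 0) := by
      rw [map_mul, c.sect, c.sect, gU_mul]
    refine mul_mem (hconj _ ?_ _ _ _ (c.sect _)) ?_
    · rw [← commutatorElement_inv]; exact inv_mem (hMT (c.comm_imL hy2 (c.sect _)))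
    · rw [comm_mul_right]
      exact mul_mem hT (hconj _ (hMT (c.comm_imL (c.sect _) (c.sect _))) _ _ _ (c.sect _))
  have hdiag : ∀ a, Q a a := fun a => hrep a a (by rw [commutatorElement_self]; exact one_mem T)
  have hbasis : ∀ a', (∀ a ∈ ({1, w, w ^ 2} : Set F), Q a a') → ∀ a, Q a a' := by
    intro a' hb a
    obtain ⟨⟨i, j, k⟩, rfl⟩ := (coord_bijective h hw).2 a
    have key : ∀ r : ZMod 2, r = 0 ∨ r = 1 := by decide
    have hterm : ∀ (r : ZMod 2) v, v ∈ ({1, w, w ^ 2} : Set F) →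
        Q (ZMod.castHom dvd_rfl F r * v) a' := fun r v hv => by
      rcases key r with rfl | rfl
      · rw [map_zero, zero_mul]; exact h0 a'
      · rw [map_one, one_mul]; exact hb v hv
    refine hadd _ _ _ (hadd _ _ _ ?_ (hterm j w (by simp))) (hterm k _ (by simp))
    rw [← mul_one (ZMod.castHom dvd_rfl F i)]
    exact hterm i 1 (by simp)
  have hall : ∀ a a', Q a a' := by
    have hgen : ∀ a ∈ ({1, w, w ^ 2} : Set F), ∀ a' ∈ ({1, w, w ^ 2} : Set F), Q a a' := by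
      rintro a (rfl | rfl | rfl) a' (rfl | rfl | rfl)
      exacts [hdiag _, hrep _ _ hTE₁, hrep _ _ hTE₂, hsym _ _ (hrep _ _ hTE₁), hdiag _,
        hrep _ _ hTE₃, hsym _ _ (hrep _ _ hTE₂), hsym _ _ (hrep _ _ hTE₃), hdiag _]
    intro a a'
    refine hbasis a' (fun v hv => hsym _ _ (hbasis v (fun u hu => hgen u hu v hv) a')) a
  have hle : ⁅(Usub h).comap σ, (Usub h).comap σ⁆ ≤ T := by
    refine Subgroup.commutator_le.2 fun x hx y hy => ?_
    obtain ⟨a, b, hx⟩ := (mem_Usub h).mp hx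
    obtain ⟨a', b', hy⟩ := (mem_Usub h).mp hy
    exact hall a a' x y b b' hx hy
  rintro g ⟨hg, hgc⟩
  replace hg : σ g = 1 := hg
  obtain ⟨i, j, k, u, hu, rfl⟩ := hle hgc
  have hu1 : σ u = 1 := by obtain ⟨d, rfl⟩ := hu; exact c.lone_mem d
  have hred : ∀ (E : Γ), E * E ∈ c.imL → ∀ n : ℤ, ∃ v ∈ c.imL, E ^ n = v * E ^ ((n % 2).toNat) := by
    intro E hE n
    refine ⟨(E * E) ^ (n / 2), zpow_mem hE _, ?_⟩
    rw [← zpow_natCast, Int.toNat_of_nonneg (Int.emod_nonneg _ (by norm_num)), ← zpow_two, ← zpow_mul,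
      ← zpow_add, Int.mul_ediv_add_emod]
  obtain ⟨v₁, hv₁, e₁⟩ := hred E₁ (c.comm_sq_mem (c.sect _) (c.sect _)) i
  obtain ⟨v₂, hv₂, e₂⟩ := hred E₂ (c.comm_sq_mem (c.sect _) (c.sect _)) j
  obtain ⟨v₃, hv₃, e₃⟩ := hred E₃ (c.comm_sq_mem (c.sect _) (c.sect _)) k
  have hv1 : ∀ v ∈ c.imL, σ v = 1 := by rintro _ ⟨d, rfl⟩; exact c.lone_mem d
  have hn : ∀ n : ℤ, (n % 2).toNat = 0 ∨ (n % 2).toNat = 1 := fun n => by omega
  have h7 : w ^ 7 = 1 := pow_seven h (fun e => by rw [e] at hw; simp at hw)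
  rw [e₁, e₂, e₃] at hg ⊢
  have hz : ∀ a b : F, gU h 0 a * gU h 0 b = gU h 0 (a + b) := fun a b => by
    rw [gU_mul, th_zero, zero_mul, add_zero, add_zero]
  simp only [map_mul, map_pow, hu1, hv1 _ hv₁, hv1 _ hv₂, hv1 _ hv₃, one_mul, hE₁, hE₂,
    hE₃] at hg
  rcases hn i with a₁ | a₁ <;> rcases hn j with a₂ | a₂ <;> rcases hn k with a₃ | a₃ <;>
    simp only [a₁, a₂, a₃, pow_zero, pow_one, mul_one, one_mul, hz, gU_eq_one_iff, true_and] at hg ⊢
  · exact mul_mem hu (mul_mem (mul_mem hv₁ hv₂) hv₃)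
  all_goals exfalso; grobner

theorem Data.exists_surj {w : F} (hw : w ^ 3 = w + 1) (hK : σ.ker ≤ c.imL) :
    ∃ π : Multiplicative (ZMod 2 × ZMod 2) →* σ.ker, Function.Surjective π := by
  classical
  haveI := h.charP
  let π : Multiplicative (ZMod 2 × ZMod 2) →* σ.ker :=
    MonoidHom.mk' (fun v => ⟨lone h L (coord w (0, v.toAdd)), c.lone_mem _⟩) fun u v => Subtype.ext (by
      change lone h L (coord w (0, u.toAdd + v.toAdd)) = _ * _
      rw [← c.lone_add, ← coord_add]; simp)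
  refine ⟨π, fun k => ?_⟩
  obtain ⟨d, hd⟩ := hK k.2
  obtain ⟨⟨i, v⟩, rfl⟩ := (coord_bijective h hw).2 d
  refine ⟨Multiplicative.ofAdd v, Subtype.ext ?_⟩
  change lone h L (coord w (0, v)) = k
  rw [hd, show ((i, v) : ZMod 2 × ZMod 2 × ZMod 2) = (i, 0) + (0, v) by simp, coord_add, c.lone_add]
  have key : ∀ r : ZMod 2, r = 0 ∨ r = 1 := by decide
  rcases key i with rfl | rfl
  · rw [show coord w ((0, 0) : ZMod 2 × ZMod 2 × ZMod 2) = 0 by simp [coord], c.lone_zero, one_mul]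
  · rw [show coord w ((1, 0) : ZMod 2 × ZMod 2 × ZMod 2) = 1 by simp [coord], c.lone_one hw, one_mul]

end

variable {F : Type*} [Field F] [Fintype F] (h : Hyp F 1)
include h

/-- Every stem extension has kernel a quotient of a four-group. -/
theorem stem_bound {Γ : Type*} [Group Γ] [Finite Γ] (σ : Γ →* G F 1) (hσ : Cfsg.IsStemExtension σ) :
    ∃ π : Multiplicative (ZMod 2 × ZMod 2) →* σ.ker, Function.Surjective π := by
  classical
  obtain ⟨hs, hcz, hst⟩ := hσ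
  obtain ⟨L, hL⟩ := hs.hasRightInverse
  have c : Data h σ L := ⟨hL, hcz⟩
  obtain ⟨w, hw⟩ := exists_gen h
  refine c.exists_surj hw fun k hk => ?_
  have htwo : ∀ p, p.Prime → p ∣ orderOf (⟨k, hk⟩ : σ.ker) → p = 2 := by
    intro p hp hpk
    by_contra hp2
    haveI := Fact.mk hp
    obtain ⟨e, he⟩ := exists_prime_orderOf_dvd_card' (G := σ.ker) p (hpk.trans (orderOf_dvd_natCard _))
    exact no_odd_cover h σ hs hcz hp2 (e := (e : Γ)) (by rw [Subgroup.orderOf_coe, he]) e.2 (hst e.2)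
  obtain ⟨n, hn⟩ : ∃ n, orderOf (⟨k, hk⟩ : σ.ker) = 2 ^ n := by
    refine ⟨_, Nat.eq_prime_pow_of_unique_prime_dvd (orderOf_pos _).ne' fun {p} hp hpd => htwo p hp hpd⟩
  refine c.ker_le hw ⟨hk, ?_⟩
  set E : Subgroup Γ := (Usub h).comap σ
  have hkE : k ∈ E := by
    change σ k ∈ Usub h
    rw [show σ k = 1 from hk]; exact one_mem _
  let f : E →* Abelianization E := Abelianization.of
  have hcen : ∀ g, g * k = k * g := fun g => Subgroup.mem_center_iff.1 (hcz hk) g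
  have h2 : MonoidHom.transfer f k = 1 :=
    Abelianization.commutator_subset_ker (MonoidHom.transfer f) (hst hk)
  rw [MonoidHom.transfer_eq_pow f k fun j g _ => by
    rw [mul_assoc, ← (Commute.pow_right (hcen g) j).eq, inv_mul_cancel_left]] at h2
  have h3 : (⟨k, hkE⟩ : E) ^ E.index ∈ commutator E := by
    rw [← Abelianization.ker_of, MonoidHom.mem_ker]
    exact (congrArg f (Subtype.ext (by rw [Subgroup.coe_pow]))).trans h2
  have hcop : Nat.Coprime E.index (orderOf (⟨k, hkE⟩ : E)) := by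
    rw [Subgroup.orderOf_mk, ← Subgroup.orderOf_mk k hk, hn]
    refine Nat.Coprime.pow_right n (Nat.coprime_comm.1 ((Nat.Prime.coprime_iff_not_dvd Nat.prime_two).2 ?_))
    rw [Subgroup.index_comap_of_surjective _ hs, Usub_index h]
    exact odd_part h
  obtain ⟨j, hj⟩ := exists_pow_eq_self_of_coprime hcop
  have h4 : (⟨k, hkE⟩ : E) ∈ commutator E := hj ▸ pow_mem h3 j
  rw [← Subgroup.map_subtype_commutator]
  exact ⟨⟨k, hkE⟩, h4, rfl⟩

end CfsgLib.SzEight
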