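import Cfsg.Agent.Sz.Algebra
import Mathlib

set_option autoImplicit false

/-!
Arithmetic in a field with eight elements.
-/

namespace CfsgLib.SzEight

open CfsgLib.Sz

variable {F : Type*} [Field F] [Fintype F]

theorem hyp (hF : Fintype.card F = 8) : Hyp F 1 := ⟨le_rfl, by rw [hF]; rfl⟩

variable (h : Hyp F 1)
include h

theorem card_eq : Fintype.card F = 8 := by rw [h.hF]; rfl

theorem pow_eight (x : F) : x ^ 8 = x := by
  have := FiniteField.pow_card x
  rwa [card_eq h] at this

theorem pow_seven {x : F} (hx : x ≠ 0) : x ^ 7 = 1 := by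
  refine mul_left_cancel₀ hx ?_
  rw [mul_one, ← pow_succ', pow_eight h]

omit h in
omit [Fintype F] in
theorem th_eq (x : F) : th 1 x = x ^ 4 := by norm_num [th]

theorem add_four (x y : F) : (x + y) ^ 4 = x ^ 4 + y ^ 4 := by
  linear_combination (2 * x ^ 3 * y + 3 * x ^ 2 * y ^ 2 + 2 * x * y ^ 3) * h.two

theorem add_sq (x y : F) : (x + y) ^ 2 = x ^ 2 + y ^ 2 := by
  linear_combination x * y * h.two

theorem exists_gen : ∃ w : F, w ^ 3 = w + 1 := by
  classical
  obtain ⟨x, -, hx⟩ := Finset.exists_mem_notMem_of_card_lt_card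
    (show ({0, 1} : Finset F).card < (Finset.univ : Finset F).card by
      rw [Finset.card_univ, card_eq h]
      exact lt_of_le_of_lt Finset.card_le_two (by norm_num))
  simp only [Finset.mem_insert, Finset.mem_singleton, not_or] at hx
  have h7 := pow_seven h hx.1
  have h1 : (x ^ 3 + x + 1) * (x ^ 3 + x ^ 2 + 1) * (x - 1) = 0 := by
    linear_combination h7 + (x ^ 4 - x ^ 3) * h.two
  rcases mul_eq_zero.1 h1 with h2 | h2
  · rcases mul_eq_zero.1 h2 with h3 | h3
    · exact ⟨x, by linear_combination h3 - (x + 1) * h.two⟩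
    · refine ⟨x⁻¹, ?_⟩
      have hx0 : x ≠ 0 := hx.1
      field_simp
      linear_combination -h3 + h.two
  · exact absurd (by linear_combination h2) hx.2

omit h in
/-- The additive map attached to coordinates. -/
def coord (w : F) [CharP F 2] (v : ZMod 2 × ZMod 2 × ZMod 2) : F :=
  ZMod.castHom dvd_rfl F v.1 + ZMod.castHom dvd_rfl F v.2.1 * w + ZMod.castHom dvd_rfl F v.2.2 * w ^ 2

omit h in
omit [Fintype F] in
theorem coord_add (w : F) [CharP F 2] (v v' : ZMod 2 × ZMod 2 × ZMod 2) :
    coord w (v + v') = coord w v + coord w v' := by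
  simp only [coord, Prod.fst_add, Prod.snd_add, map_add]
  ring

theorem coord_eq_zero {w : F} (hw : w ^ 3 = w + 1) [CharP F 2] {v : ZMod 2 × ZMod 2 × ZMod 2}
    (hv : coord w v = 0) : v = 0 := by
  have h2 := h.two
  have key : ∀ a : ZMod 2, a = 0 ∨ a = 1 := by decide
  obtain ⟨i, j, k⟩ := v
  simp only [coord] at hv
  rcases key i with rfl | rfl <;> rcases key j with rfl | rfl <;> rcases key k with rfl | rfl <;>
    simp only [map_zero, map_one, zero_mul, one_mul, zero_add, add_zero] at hv <;>
    first
      | rfl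
      | (exfalso; grobner)

theorem coord_bijective {w : F} (hw : w ^ 3 = w + 1) [CharP F 2] : Function.Bijective (coord w) := by
  refine (Fintype.bijective_iff_injective_and_card _).2 ⟨fun v v' e => ?_, ?_⟩
  · have h1 : v + v' = 0 := coord_eq_zero h hw (by rw [coord_add, e]; linear_combination coord w v' * h.two)
    revert h1
    revert v v'
    intro v v' _ h1
    have : ∀ a b : ZMod 2, a + b = 0 → a = b := by decide
    exact Prod.ext (this _ _ (congrArg Prod.fst h1))
      (Prod.ext (this _ _ (congrArg (fun x => x.2.1) h1)) (this _ _ (congrArg (fun x => x.2.2) h1)))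
  · rw [card_eq h]; simp

end CfsgLib.SzEight
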